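-- Certificate checks for Y5C.
import Cfsg.Agent.Lib.Compute.TC.Y5C.Data
set_option autoImplicit false
set_option maxRecDepth 1000000

open Cfsg.Agent.Lib.Compute.ToddCoxeterCore Cfsg.Agent.Lib.Compute.ToddCoxeterPresented Cfsg.Agent.Lib.Compute.TCFast

namespace Cfsg.Agent.Lib.Compute.TC.Y5C

theorem finAll : allFrom (cfg.chkFin (List.range cfg.L)) (nat_lit 28160) (nat_lit 0) = true := by decide +kernel
theorem qAll : allFrom cfg.chkQ (nat_lit 28159) (nat_lit 1) = true := by decide +kernel
theorem lblAll : allFrom cfg.chkLbl (nat_lit 46713) (nat_lit 1) = true := by decide +kernel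

end Cfsg.Agent.Lib.Compute.TC.Y5C
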